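import Cfsg.Agent.OD.Pre
import Cfsg.Agent.H6.Top2
import Cfsg.Agent.H6.L7A.C
set_option autoImplicit false
set_option maxRecDepth 100000
set_option Elab.async false
set_option linter.all false
namespace CfH6.L7A
open CfH6 MulAction
theorem e0_0 : EqsOk nets0 eqs0 80 7 0 7 :=
  eqsOk_of _ _ _ _ 0 7 _ (by decide) (by decide +kernel)
theorem ok0 : okNets 80 nets0 = true := by decide +kernel
theorem x1_0 : NxOk nets0 ws1 nets1 5 80 7 80 0 7 :=
  nxOk_of _ _ _ _ _ _ _ 0 7 _ (by decide) (by decide +kernel)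
theorem sx1 : sideNx ws1 nets1 12 80 7 80 = true := by decide +kernel
theorem x2_0 : NxOk nets1 ws2 nets2 3 80 7 64 0 7 :=
  nxOk_of _ _ _ _ _ _ _ 0 7 _ (by decide) (by decide +kernel)
theorem sx2 : sideNx ws2 nets2 5 80 7 64 = true := by decide +kernel
theorem x3_0 : NxOk nets2 ws3 nets3 2 64 6 16 0 6 :=
  nxOk_of _ _ _ _ _ _ _ 0 6 _ (by decide) (by decide +kernel)
theorem sx3 : sideNx ws3 nets3 3 64 6 16 = true := by decide +kernel
theorem oi1_0 : (Nat.blt 0 5 && Nat.beq (orbN nets1 5 15 (Nat.shiftLeft 1 1)) S1) = true := by decide +kernel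
theorem ci1 : (Nat.beq (chkInv nets1 5 S1) 0 && S1.testBit 1) = true := by decide +kernel
theorem cm1 : chkMx 80 nets0 12 ws1 5 57 w1 1 J1 lBig = true := by decide +kernel
theorem og3 : Nat.ble 12 (popc 4 (orbN nets3 2 10 (Nat.shiftLeft 1 3))) = true := by decide +kernel
theorem og2 : Nat.ble 49 (popc 6 (orbN nets2 3 9 (Nat.shiftLeft 1 2))) = true := by decide +kernel
theorem pw0 : (allLt 12 (wpow [10, 0, 4] (19 ^ 1)) && bs'.all fun b => Nat.blt b 80 && Nat.beq (chkMap nets0 (wpow [10, 0, 4] (19 ^ 1)) b b) 0) = true := by decide +kernel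
end CfH6.L7A
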